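import Mathlib
import Cfsg.Agent.Lib.Perm2.Hall2
import Cfsg.Agent.Lib.SymMax.SmallIndex
import Cfsg.Agent.S0710

/-!
Multiply transitive groups: restriction to the complement of a fixed set, the group induced on a
tuple, and `(k+1)`-sets on which a `k`-transitive group induces the alternating group.
-/

set_option autoImplicit false

namespace CfsgLib.Perm2

open MulAction CfsgLib.Perm Equiv Equiv.Perm

universe u

section Restrict

variable {α : Type u} [Fintype α] [DecidableEq α] {G : Subgroup (Perm α)}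

theorem exists_restrict {j m : ℕ} (hG : IsMultiplyPretransitive G α (j + m))
    (hn : j + m ≤ Fintype.card α) :
    ∃ (β : Type u) (_ : Fintype β) (_ : DecidableEq β) (L : Subgroup (Perm β)),
      Fintype.card β + j = Fintype.card α ∧ IsMultiplyPretransitive L β m ∧
      Nat.card L * (Fintype.card α).descFactorial j = Nat.card G ∧
      (∀ i, OddStab G (j + i) → OddStab L i) ∧
      (∀ i, IsMultiplyPretransitive L β i → IsMultiplyPretransitive G α (j + i)) := by
  classical
  obtain ⟨s, -, hs⟩ := Finset.exists_subset_card_eq (s := (Finset.univ : Finset α)) (n := j)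
    (by rw [Finset.card_univ]; omega)
  have hs' : (s : Set α).ncard = j := by rw [Set.ncard_coe_finset, hs]
  have hGj : IsMultiplyPretransitive G α j :=
    isMultiplyPretransitive_of_le (n := j + m) (by omega) (by rwa [Nat.card_eq_fintype_card])
  let β := SubMulAction.ofFixingSubgroup G (s : Set α)
  have := Fintype.ofFinite β
  have hF : FaithfulSMul (fixingSubgroup G (s : Set α)) β := ⟨fun {g h} e => by
    refine Subtype.ext (Subtype.ext (Equiv.ext fun x => ?_))
    by_cases hx : x ∈ s
    · exact ((mem_fixingSubgroup_iff G).1 g.2 x hx).trans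
        ((mem_fixingSubgroup_iff G).1 h.2 x hx).symm
    · exact congrArg Subtype.val (e ⟨x, hx⟩)⟩
  refine ⟨β, inferInstance, inferInstance, (toPermHom (fixingSubgroup G (s : Set α)) β).range,
    ?_, ?_, ?_, ?_, ?_⟩
  · have h1 := Set.ncard_add_ncard_compl (s : Set α)
    have h2 : Fintype.card β = (s : Set α)ᶜ.ncard := Nat.card_eq_fintype_card.symm
    rw [Nat.card_eq_fintype_card] at h1
    omega
  · exact isMultiplyPretransitive_range_iff.2
      (SubMulAction.ofFixingSubgroup.isMultiplyPretransitive G (n := j + m) _ (by rw [hs']))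
  · rw [card_range, ← index_fixing_eq hGj hs', Subgroup.card_mul_index]
  · rintro i hO _ ⟨g, rfl⟩ hi
    refine (hO g.1.1 g.1.2 ?_).of_dvd_nat ?_
    · have h1 : (s : Set α) ∪ Subtype.val '' {x : β | toPermHom _ β g x = x} ⊆
          {x | g.1.1 x = x} := by
        rintro x (hx | ⟨y, hy, rfl⟩)
        · exact (mem_fixingSubgroup_iff G).1 g.2 x hx
        · exact congrArg Subtype.val hy
      have h2 := Set.ncard_le_ncard h1
      rw [Set.ncard_union_eq (Set.disjoint_left.2 (by rintro x hx ⟨y, -, rfl⟩; exact y.2 hx)),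
        Set.ncard_image_of_injective _ Subtype.val_injective, hs'] at h2
      omega
    · rw [Subgroup.orderOf_coe, Subgroup.orderOf_coe]
      exact orderOf_map_dvd _ _
  · intro i hi
    rw [isMultiplyPretransitive_range_iff] at hi
    refine isMultiplyPretransitive_add_of_fixing hGj s hs fun t ht hd f hf hfs => ?_
    exact exists_fix_of_ofFixingSubgroup (s : Set α) hi t ht
      (fun x hx => Finset.disjoint_right.1 hd hx) f hf hfs

theorem isMultiplyPretransitive_of_alt_le (hA : alternatingGroup α ≤ G) :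
    IsMultiplyPretransitive G α (Fintype.card α - 2) := by
  rw [← Nat.card_eq_fintype_card]
  exact isMultiplyPretransitive_mono hA (alternatingGroup.isMultiplyPretransitive α)

theorem alt_le_of_isMultiplyPretransitive {k : ℕ} (hG : IsMultiplyPretransitive G α k)
    (h1 : k ≤ Fintype.card α) (h2 : Fintype.card α ≤ k + 2) : alternatingGroup α ≤ G :=
  _root_.IsMultiplyPretransitive.alternatingGroup_le _ G
    (isMultiplyPretransitive_of_le (n := k) (by rw [Nat.card_eq_fintype_card]; omega)
      (by rwa [Nat.card_eq_fintype_card]))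

theorem OddStab.hall_ext' {j : ℕ} (hO : OddStab G (j + 4))
    (hG : IsMultiplyPretransitive G α (j + 4)) (hn : j + 4 ≤ Fintype.card α) :
    (alternatingGroup α ≤ G ∧ Fintype.card α ≤ j + 7) ∨
      (Fintype.card α = j + 11 ∧ Nat.card G = (Fintype.card α).descFactorial (j + 4)) := by
  obtain ⟨β, _, _, L, hc, hL, hcard, hO', htr⟩ := exists_restrict hG hn
  rcases (hO' 4 hO).hall hL (by omega) with ⟨h1, -⟩ | ⟨h1, h2⟩ | ⟨h1, h2⟩
  · exact Or.inl ⟨alt_le_of_isMultiplyPretransitive hG hn (by omega), by omega⟩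
  · exact Or.inl ⟨alt_le_of_isMultiplyPretransitive
      (htr _ (isMultiplyPretransitive_of_alt_le h2.ge)) (by omega) (by omega), by omega⟩
  · refine Or.inr ⟨by omega, ?_⟩
    rw [← hcard, h2, ← Nat.descFactorial_mul_descFactorial (show j ≤ j + 4 by omega),
      show Fintype.card α - j = 11 by omega, Nat.add_sub_cancel_left]
    rfl

theorem OddStab.hall_ext {j : ℕ} (hO : OddStab G (j + 4))
    (hG : IsMultiplyPretransitive G α (j + 4)) (hn : j + 4 ≤ Fintype.card α) :
    (alternatingGroup α ≤ G ∧ Fintype.card α ≤ j + 7) ∨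
      (j ≤ 1 ∧ Fintype.card α = j + 11 ∧
        Nat.card G = (Fintype.card α).descFactorial (j + 4)) := by
  refine (hO.hall_ext' hG hn).imp id fun h => ⟨?_, h⟩
  by_contra hj
  obtain ⟨i, rfl⟩ : ∃ i, j = i + 2 := ⟨j - 2, by omega⟩
  obtain ⟨β, _, _, L, hc, hL, hcard, -, -⟩ := exists_restrict (j := i) (m := 6) hG hn
  have h13 : Fintype.card β = 13 := by omega
  have : IsPretransitive L β := is_one_pretransitive_iff.1
    (isMultiplyPretransitive_of_le (n := 6) (by norm_num) (by rw [Nat.card_eq_fintype_card]; omega))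
  apply Cfsg.Agent.S0710.result h13 L
  rw [h.2, ← Nat.descFactorial_mul_descFactorial (show i ≤ i + 2 + 4 by omega),
    show Fintype.card α - i = 13 by omega, show i + 2 + 4 - i = 6 by omega] at hcard
  exact Nat.eq_of_mul_eq_mul_right (Nat.descFactorial_pos.2 (by omega)) hcard

end Restrict

section Induced

variable {α ι : Type*}

/-- The permutations induced by `G` on the tuple `x`. -/
def induced (G : Subgroup (Perm α)) (x : ι ↪ α) : Subgroup (Perm ι) where
  carrier := {σ | ∃ g ∈ G, ∀ i, g (x i) = x (σ i)}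
  one_mem' := ⟨1, G.one_mem, fun _ => rfl⟩
  mul_mem' := by
    rintro σ τ ⟨g, hg, h1⟩ ⟨u, hu, h2⟩
    exact ⟨g * u, G.mul_mem hg hu, fun i => by rw [Perm.mul_apply, h2, h1, Perm.mul_apply]⟩
  inv_mem' := by
    rintro σ ⟨g, hg, h⟩
    exact ⟨g⁻¹, G.inv_mem hg, fun i => by rw [Perm.inv_eq_iff_eq, h]; simp⟩

variable {G : Subgroup (Perm α)}

theorem induced_of_smul {x y : ι ↪ α} {g : Perm α} (hg : g ∈ G) (h : ∀ i, g (x i) = y i) :
    induced G x ≤ induced G y := by
  rintro σ ⟨u, hu, e⟩
  refine ⟨g * u * g⁻¹, G.mul_mem (G.mul_mem hg hu) (G.inv_mem hg), fun i => ?_⟩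
  rw [← h, ← h]
  simp [e]

theorem alt_le_induced [Fintype α] [DecidableEq α] [Fintype ι] [DecidableEq ι]
    (hA : alternatingGroup α ≤ G) (x : ι ↪ α) : alternatingGroup ι ≤ induced G x := by
  intro σ hσ
  refine ⟨σ.viaFintypeEmbedding x, hA ?_, fun i => σ.viaFintypeEmbedding_apply_image x i⟩
  rw [mem_alternatingGroup, viaFintypeEmbedding_sign]
  exact hσ

theorem exists_involution_of_even {G : Type*} [Group G] {g : G} (h0 : orderOf g ≠ 0)
    (h : Even (orderOf g)) : ∃ j : ℕ, g ^ j * g ^ j = 1 ∧ g ^ j ≠ 1 := by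
  obtain ⟨j, hj⟩ := h
  exact ⟨j, by rw [← pow_add, ← hj, pow_orderOf_eq_one],
    pow_ne_one_of_lt_orderOf (by omega) (by omega)⟩

theorem exists_swap_of_involution [Finite α] {k : ℕ} (hG : IsMultiplyPretransitive G α (k + 1))
    (hinv : ∀ g ∈ G, g * g = 1 → k + 2 ≤ {x | g x = x}.ncard → g = 1) {t : Perm α} (htG : t ∈ G)
    (ht : t * t = 1) (ht1 : t ≠ 1) (htk : k + 1 ≤ {x | t x = x}.ncard) (U : Finset α)
    (hU : U.card = k) {a b : α} (ha : a ∉ U) (hb : b ∉ U) (hab : a ≠ b) :
    ∃ s ∈ G, (∀ x ∈ U, s x = x) ∧ s a = b ∧ s b = a := by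
  classical
  have := Fintype.ofFinite α
  have hk : {x | t x = x}.ncard = k + 1 := by
    by_contra h
    exact ht1 (hinv t htG ht (by omega))
  have key : ∀ c ∉ U, ∃ z ∈ G, z * z = 1 ∧ ∀ x, z x = x ↔ x = c ∨ x ∈ U := by
    intro c hc
    obtain ⟨g, hg⟩ := IsHomog.of_isMultiplyPretransitive hG {x | t x = x}.toFinset (insert c U)
      (by rw [← Set.ncard_eq_toFinset_card', hk]) (by rw [Finset.card_insert_of_notMem hc, hU])
    refine ⟨g.1 * t * g.1⁻¹, G.mul_mem (G.mul_mem g.2 htG) (G.inv_mem g.2), conj_mul_self ht _,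
      fun x => ?_⟩
    rw [← Finset.mem_insert, ← hg, ← Finset.inv_smul_mem_iff, Set.mem_toFinset]
    change g.1 (t (g.1⁻¹ x)) = x ↔ t (g.1⁻¹ x) = g.1⁻¹ x
    rw [← Perm.eq_inv_iff_eq]
  obtain ⟨y, hyG, hy, hyf⟩ := key a ha
  obtain ⟨z, hzG, hz, hzf⟩ := key b hb
  have hU' : ∀ j : ℕ, ∀ x ∈ U, ((y * z) ^ j) x = x := fun j x hx =>
    pow_apply_of_fix (by rw [Perm.mul_apply, (hzf x).2 (Or.inr hx), (hyf x).2 (Or.inr hx)]) j
  have hnot : ∀ j : ℕ, ∀ x ∉ U, ((y * z) ^ j) x ∉ U := fun j x hx e =>
    hx (((y * z) ^ j).injective (hU' j _ e) ▸ e)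
  have hodd : Odd (orderOf (y * z)) := by
    by_contra hev
    obtain ⟨j, h1, h2⟩ := exists_involution_of_even (orderOf_pos (y * z)).ne'
      (Nat.not_odd_iff_even.1 hev)
    apply h2
    have hi : ((y * z) ^ j)⁻¹ = (y * z) ^ j := inv_eq_of_mul_eq_one_right h1
    have c1 : (y * z) ^ j * y = y * (y * z) ^ j := by
      have := conj_pow_eq_inv hy hz j
      rw [hi] at this
      conv_lhs => rw [← this, mul_assoc, hy, mul_one]
    have c2 : (y * z) ^ j * z = z * (y * z) ^ j := by
      have h3 : Commute ((y * z) ^ j) (y * z) := (Commute.refl _).pow_left j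
      have h4 : Commute ((y * z) ^ j) (y * (y * z)) := Commute.mul_right c1 h3
      rwa [← mul_assoc, hy, one_mul] at h4
    have e1 : ((y * z) ^ j) a = a :=
      ((hyf _).1 ((fix_comm c1 a).2 ((hyf a).2 (Or.inl rfl)))).resolve_right (hnot j a ha)
    have e2 : ((y * z) ^ j) b = b :=
      ((hzf _).1 ((fix_comm c2 b).2 ((hzf b).2 (Or.inl rfl)))).resolve_right (hnot j b hb)
    refine hinv _ (G.pow_mem (G.mul_mem hyG hzG) j) h1 ?_
    have h5 : ((insert a (insert b U) : Finset α) : Set α) ⊆ {x | ((y * z) ^ j) x = x} := by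
      intro x hx
      simp only [Finset.coe_insert, Set.mem_insert_iff, Finset.mem_coe] at hx
      rcases hx with rfl | rfl | hx
      · exact e1
      · exact e2
      · exact hU' j x hx
    have h6 := Set.ncard_le_ncard h5
    rwa [Set.ncard_coe_finset, Finset.card_insert_of_notMem (by simp [hab, ha]),
      Finset.card_insert_of_notMem hb, hU] at h6
  obtain ⟨j, hj⟩ := exists_conj_of_odd hy hz hodd
  have hya : y a = a := (hyf a).2 (Or.inl rfl)
  have e1 : ((y * z) ^ j) a = b := by
    refine ((hzf _).1 ?_).resolve_right (hnot j a ha)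
    rw [← Perm.mul_apply, ← mul_inv_eq_iff_eq_mul.1 hj, Perm.mul_apply, hya]
  have hc : (y * z) ^ j * y * ((y * z) ^ j * y) = 1 := by
    rw [mul_assoc, ← mul_assoc y, conj_pow_eq_inv hy hz, mul_inv_cancel]
  have e2 : ((y * z) ^ j * y) a = b := by rw [Perm.mul_apply, hya, e1]
  refine ⟨(y * z) ^ j * y, G.mul_mem (G.pow_mem (G.mul_mem hyG hzG) j) hyG, fun x hx => ?_, e2, ?_⟩
  · rw [Perm.mul_apply, (hyf x).2 (Or.inr hx), hU' j x hx]
  · rw [← e2, apply_apply_of_mul_self hc]

theorem induced_eq_top_of_involution [Finite α] {k : ℕ} (hG : IsMultiplyPretransitive G α (k + 1))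
    (hinv : ∀ g ∈ G, g * g = 1 → k + 2 ≤ {x | g x = x}.ncard → g = 1) {t : Perm α} (htG : t ∈ G)
    (ht : t * t = 1) (ht1 : t ≠ 1) (htk : k + 1 ≤ {x | t x = x}.ncard) [Fintype ι]
    (hι : Fintype.card ι = k + 2) (x : ι ↪ α) : induced G x = ⊤ := by
  classical
  rw [eq_top_iff, ← closure_isSwap, Subgroup.closure_le]
  rintro _ ⟨i, j, hij, rfl⟩
  obtain ⟨s, hs, h1, h2, h3⟩ := exists_swap_of_involution hG hinv htG ht ht1 htk
    (((Finset.univ.erase i).erase j).map x) (by
      rw [Finset.card_map, Finset.card_erase_of_mem (by simp [hij.symm]),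
        Finset.card_erase_of_mem (Finset.mem_univ _), Finset.card_univ, hι]; rfl)
    (a := x i) (b := x j) (by simp) (by simp) (fun e => hij (x.injective e))
  refine ⟨s, hs, fun l => ?_⟩
  by_cases hi : l = i
  · rw [hi, swap_apply_left, h2]
  by_cases hj : l = j
  · rw [hj, swap_apply_right, h3]
  rw [swap_apply_of_ne_of_ne hi hj]
  exact h1 _ (by simp [hi, hj])

theorem exists_alt_le_stabilizer [Fintype ι] [DecidableEq ι] {X : Type*} [MulAction (Perm ι) X]
    (hι : Fintype.card ι = 5 ∨ Fintype.card ι = 6) (hX : Nat.card X = 7) :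
    ∃ q : X, alternatingGroup ι ≤ stabilizer (Perm ι) q := by
  by_contra h
  push Not at h
  have : Finite X := Nat.finite_of_card_ne_zero (by omega)
  have h5 : ∀ q : X, 5 ≤ (orbit (Perm ι) q).ncard := fun q => by
    rw [← index_stabilizer]
    refine le_trans (by omega) (CfsgLib.SymMax.le_index_of_two_lt (Ω := ι) (by omega) ?_)
    by_contra hle
    exact h q (alternatingGroup_le_of_index_le_two (by omega))
  obtain ⟨q⟩ : Nonempty X := (Nat.card_pos_iff.1 (by omega)).1
  have h7 : (orbit (Perm ι) q).ncard ≠ 7 := by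
    intro e
    have := (stabilizer (Perm ι) q).index_dvd_card
    rw [index_stabilizer, e, Nat.card_perm, Nat.card_eq_fintype_card] at this
    rcases hι with h | h <;> rw [h] at this <;> exact absurd this (by decide)
  have h1 := Set.ncard_add_ncard_compl (orbit (Perm ι) q)
  obtain ⟨r, hr⟩ : (orbit (Perm ι) q)ᶜ.Nonempty := Set.nonempty_of_ncard_ne_zero (by omega)
  have h2 : (orbit (Perm ι) r).ncard ≤ (orbit (Perm ι) q)ᶜ.ncard := by
    apply Set.ncard_le_ncard _ (Set.toFinite _)
    rintro _ ⟨σ, rfl⟩ ⟨τ, e⟩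
    exact hr ⟨σ⁻¹ * τ, by simp only at e ⊢; rw [mul_smul, e, inv_smul_smul]⟩
  have := h5 q
  have := h5 r
  omega

/-- The action of the symmetric group on the orbits of tuples. -/
@[reducible] def tupleAction (G : Subgroup (Perm α)) (ι : Type*) :
    MulAction (Perm ι) (orbitRel.Quotient G (ι ↪ α)) where
  smul σ := Quotient.map' (fun x => σ⁻¹.toEmbedding.trans x) (by
    rintro _ y ⟨g, rfl⟩
    exact ⟨g, rfl⟩)
  one_smul q := by
    induction q using Quotient.inductionOn'
    rfl
  mul_smul σ τ q := by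
    induction q using Quotient.inductionOn'
    rfl

theorem exists_alt_le_induced_of_sharp [Fintype α] {k : ℕ} (hk : k = 4 ∨ k = 5)
    (hG : IsMultiplyPretransitive G α k) (hn : Fintype.card α = k + 7)
    (hc : Nat.card G = (Fintype.card α).descFactorial k) :
    ∃ x : Fin (k + 1) ↪ α, alternatingGroup (Fin (k + 1)) ≤ induced G x := by
  classical
  have hfree : ∀ x : Fin (k + 1) ↪ α, stabilizer G x = ⊥ := by
    intro x
    have h1 := index_fixing_eq hG (s := Set.range fun i : Fin k => x i.castSucc) (by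
      rw [Set.ncard_range_of_injective (f := fun i : Fin k => x i.castSucc)
        (x.injective.comp (Fin.castSucc_injective k)),
        Nat.card_eq_fintype_card, Fintype.card_fin])
    rw [← hc, ← (fixingSubgroup G (Set.range fun i : Fin k => x i.castSucc)).index_mul_card] at h1
    have h2 : Nat.card (fixingSubgroup G (Set.range fun i : Fin k => x i.castSucc)) = 1 :=
      (Nat.mul_eq_left Subgroup.FiniteIndex.index_ne_zero).1 h1.symm
    rw [eq_bot_iff, ← Subgroup.card_eq_one.1 h2]
    intro g hg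
    rw [mem_fixingSubgroup_iff]
    rintro _ ⟨i, rfl⟩
    exact (mem_stabilizer_embedding x g).1 hg _
  have h7 : Nat.card (orbitRel.Quotient G (Fin (k + 1) ↪ α)) = 7 := by
    have h1 := Nat.card_congr (selfEquivOrbitsQuotientProd hfree)
    rw [Nat.card_prod, Nat.card_eq_fintype_card, Fintype.card_embedding_eq, Fintype.card_fin,
      Nat.descFactorial_succ, hc, show Fintype.card α - k = 7 by omega] at h1
    exact (Nat.eq_of_mul_eq_mul_right (Nat.descFactorial_pos.2 (by omega)) h1).symm
  let := tupleAction G (Fin (k + 1))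
  obtain ⟨q, hq⟩ := exists_alt_le_stabilizer (ι := Fin (k + 1)) (by simp; omega) h7
  induction q using Quotient.inductionOn' with
  | h x =>
    refine ⟨x, fun σ hσ => ?_⟩
    obtain ⟨g, hg⟩ : orbitRel G _ (σ⁻¹⁻¹.toEmbedding.trans x) x :=
      Quotient.exact' (hq (Subgroup.inv_mem _ hσ))
    exact ⟨g.1, g.2, fun i => congrArg (fun u : Fin (k + 1) ↪ α => u i) hg⟩

end Induced

/-- A `k`-transitive group (`4 ≤ k < n`) induces the alternating group on some `(k+1)`-set. -/
theorem exists_alt_le_induced {j : ℕ} (n : ℕ) : ∀ (α : Type u) [Fintype α] [DecidableEq α]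
    (G : Subgroup (Perm α)), Fintype.card α = n → j + 4 < n → IsMultiplyPretransitive G α (j + 4) →
    ∃ x : Fin (j + 4 + 1) ↪ α, alternatingGroup (Fin (j + 4 + 1)) ≤ induced G x := by
  induction n using Nat.strong_induction_on with
  | h n ih =>
  intro α _ _ G hn hlt hG
  classical
  obtain ⟨Q, -, -, hQk, hmax, hN⟩ := exists_normalizer_transitive (k := j + 3) Nat.prime_two hG
    (P := ⊥) IsPGroup.of_bot (by
      have : fixedPoints (⊥ : Subgroup G) α = Set.univ :=
        Set.eq_univ_of_forall fun x g => by rw [Subsingleton.elim g 1, one_smul]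
      rw [this, Set.ncard_univ, Nat.card_eq_fintype_card]; omega)
  by_cases hF : fixedPoints Q α = Set.univ
  · have hQ : Q = ⊥ := by
      rw [eq_bot_iff]
      intro g hg
      exact Subtype.ext (Equiv.ext fun x => (hF ▸ Set.mem_univ x : x ∈ fixedPoints Q α) ⟨g, hg⟩)
    have hinv : ∀ g ∈ G, g * g = 1 → j + 3 + 2 ≤ {x | g x = x}.ncard → g = 1 := by
      intro g hg h2 hle
      have := hmax (Subgroup.zpowers (⟨g, hg⟩ : G)) (hQ ▸ bot_le)
        (isPGroup_zpowers (Subtype.ext (by simpa [pow_two] using h2)))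
        (by rw [fixedPoints_zpowers]; exact hle)
      rw [hQ, Subgroup.zpowers_eq_bot] at this
      exact congrArg Subtype.val this
    obtain ⟨x⟩ : Nonempty (Fin (j + 4 + 1) ↪ α) :=
      Function.Embedding.nonempty_of_card_le (by rw [Fintype.card_fin]; omega)
    by_cases hO : OddStab G (j + 4)
    · rcases hO.hall_ext hG (by omega) with ⟨h1, -⟩ | ⟨h1, h2, h3⟩
      · exact ⟨x, alt_le_induced h1 x⟩
      · exact exists_alt_le_induced_of_sharp (by omega) hG h2 h3
    · simp only [OddStab, not_forall] at hO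
      obtain ⟨g, hg, hle, hev⟩ := hO
      obtain ⟨i, h1, h2⟩ := exists_involution_of_even (orderOf_pos g).ne'
        (Nat.not_odd_iff_even.1 hev)
      refine ⟨x, ?_⟩
      rw [induced_eq_top_of_involution hG hinv (G.pow_mem hg i) h1 h2
        (hle.trans (Set.ncard_le_ncard fun x hx => pow_apply_of_fix hx i)) (Fintype.card_fin _) x]
      exact le_top
  · have := Fintype.ofFinite (fixSub α Q)
    have hc : Fintype.card (fixSub α Q) = (fixedPoints Q α).ncard := Nat.card_eq_fintype_card.symm
    have hlt' : (fixedPoints Q α).ncard < n := by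
      rw [← hn, ← Nat.card_eq_fintype_card, ← Set.ncard_univ]
      exact Set.ncard_lt_ncard (Set.ssubset_univ_iff.2 hF)
    obtain ⟨x, hx⟩ := ih _ hlt' (fixSub α Q) _ hc hQk (isMultiplyPretransitive_range_iff.2 hN)
    refine ⟨x.trans (Function.Embedding.subtype _), fun σ hσ => ?_⟩
    obtain ⟨_, ⟨g, rfl⟩, hg⟩ := hx hσ
    exact ⟨g.1.1, g.1.2, fun i => congrArg Subtype.val (hg i)⟩

end CfsgLib.Perm2
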