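import Mathlib
import Cfsg.Agent.Lib.Perm2.LW1
import Cfsg.Agent.Lib.Fgs.AutBound

/-!
The Livingstone–Wagner theorem.
-/

set_option autoImplicit false

namespace CfsgLib.Perm2

open MulAction CfsgLib.Perm Equiv Equiv.Perm
open scoped Pointwise

universe u

section Homog

variable {G α : Type*} [Group G] [MulAction G α] [DecidableEq α]

theorem IsHomog.card_fixing_eq {k : ℕ} (h : IsHomog G α k) {s t : Finset α} (hs : s.card = k)
    (ht : t.card = k) :
    Nat.card (fixingSubgroup G (t : Set α)) = Nat.card (fixingSubgroup G (s : Set α)) := by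
  obtain ⟨g, rfl⟩ := h s t hs ht
  rw [Finset.coe_smul_finset, SubMulAction.fixingSubgroup_smul_eq_fixingSubgroup_map_conj,
    Subgroup.card_map_of_injective (MulAut.conj g).injective]

theorem IsHomog.card_stabilizer_mul [Fintype α] {k : ℕ} (h : IsHomog G α k) {s : Finset α}
    (hs : s.card = k) : Nat.card (stabilizer G s) * (Fintype.card α).choose k = Nat.card G := by
  have : orbit G s = (Finset.univ.powersetCard k : Finset (Finset α)) := by
    ext t
    rw [Finset.mem_coe, Finset.mem_powersetCard]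
    constructor
    · rintro ⟨g, rfl⟩
      exact ⟨Finset.subset_univ _, by rw [Finset.card_smul_finset, hs]⟩
    · exact fun ht => h s t hs ht.2
  rw [← Finset.card_univ, ← Finset.card_powersetCard, ← Set.ncard_coe_finset, ← this,
    ← index_stabilizer, Subgroup.card_mul_index]

theorem IsHomog.exists_perm {ι : Type*} [Fintype ι] (h : IsHomog G α (Fintype.card ι))
    (x y : ι ↪ α) : ∃ (g : G) (τ : Perm ι), ∀ i, g • x i = y (τ i) := by
  obtain ⟨g, hg⟩ := h (Finset.univ.map x) (Finset.univ.map y) (by simp) (by simp)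
  have : ∀ i, ∃ j, g • x i = y j := fun i => by
    have : g • x i ∈ Finset.univ.map y := hg ▸ Finset.smul_mem_smul_finset (by simp)
    obtain ⟨j, -, hj⟩ := Finset.mem_map.1 this
    exact ⟨j, hj.symm⟩
  choose f hf using this
  have hinj : Function.Injective f := fun i j e =>
    x.injective (smul_left_cancel g (by rw [hf, hf, e]))
  exact ⟨g, Equiv.ofBijective f hinj.bijective_of_finite, hf⟩

end Homog

variable {α : Type u} [Fintype α] [DecidableEq α] {G : Subgroup (Perm α)}

omit [Fintype α] in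
theorem IsHomog.isMultiplyPretransitive {k : ℕ} (h : IsHomog G α k) {x : Fin k ↪ α}
    (hx : induced G x = ⊤) : IsMultiplyPretransitive G α k := by
  have key : ∀ y : Fin k ↪ α, ∃ g : G, ∀ i, g • x i = y i := by
    intro y
    obtain ⟨g, τ, hg⟩ := IsHomog.exists_perm (G := G) (by rwa [Fintype.card_fin]) x y
    obtain ⟨u, hu, e⟩ : τ⁻¹ ∈ induced G x := hx ▸ Subgroup.mem_top _
    refine ⟨g * ⟨u, hu⟩, fun i => ?_⟩
    rw [mul_smul]
    change g • u (x i) = y i
    rw [e, hg]; simp
  rw [isMultiplyPretransitive_iff_forall]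
  intro y z
  obtain ⟨g, hg⟩ := key y
  obtain ⟨u, hu⟩ := key z
  exact ⟨u * g⁻¹, fun i => by rw [← hg, ← hu, mul_smul, inv_smul_smul]⟩

omit [DecidableEq α] in
theorem OddStab.of_involution {k : ℕ}
    (h : ∀ g ∈ G, g * g = 1 → k ≤ {x | g x = x}.ncard → g = 1) : OddStab G k := by
  intro g hg hle
  by_contra hev
  obtain ⟨i, h1, h2⟩ := exists_involution_of_even (orderOf_pos g).ne' (Nat.not_odd_iff_even.1 hev)
  exact h2 (h _ (G.pow_mem hg i) h1
    (hle.trans (Set.ncard_le_ncard fun x hx => pow_apply_of_fix hx i)))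

omit [DecidableEq α] in
theorem OddStab.odd_card_fixing {k : ℕ} (h : OddStab G k) {s : Set α} (hs : k ≤ s.ncard) :
    Odd (Nat.card (fixingSubgroup G s)) := by
  by_contra hev
  have := Fact.mk Nat.prime_two
  obtain ⟨t, ht⟩ := exists_prime_orderOf_dvd_card' 2 (Nat.not_odd_iff_even.1 hev).two_dvd
  have := h.odd_of_fix t.1.2 hs ((mem_fixingSubgroup_iff G).1 t.2)
  rw [Subgroup.orderOf_coe, Subgroup.orderOf_coe, ht] at this
  exact absurd this (by decide)

omit [Fintype α] in
theorem exists_invariant_of_order_three {g : Perm α} (h3 : g ^ 3 = 1) (h1 : g ≠ 1)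
    (T : Finset α) (hT : ∀ x ∈ T, g x = x) :
    ∃ Δ : Finset α, Δ.card = T.card + 3 ∧ g • Δ = Δ := by
  obtain ⟨a, ha⟩ : ∃ a, g a ≠ a := by
    by_contra h
    push Not at h
    exact h1 (Equiv.ext h)
  have e3 : g (g (g a)) = a := by
    have := congrArg (fun u : Perm α => u a) h3
    simpa [pow_succ] using this
  have d1 : g (g a) ≠ g a := fun e => ha (g.injective e)
  have d2 : g (g a) ≠ a := fun e => ha (by rwa [e] at e3)
  have t1 : a ∉ T := fun e => ha (hT _ e)
  have t2 : g a ∉ T := fun e => d1 (hT _ e)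
  have t3 : g (g a) ∉ T := fun e => d2 (by rw [← hT _ e, e3])
  refine ⟨insert a (insert (g a) (insert (g (g a)) T)), ?_, ?_⟩
  · rw [Finset.card_insert_of_notMem (by simp [ha.symm, d2.symm, t1]),
      Finset.card_insert_of_notMem (by simp [d1.symm, t2]), Finset.card_insert_of_notMem t3]
  · apply Finset.eq_of_subset_of_card_le _ (by rw [Finset.card_smul_finset])
    intro y hy
    obtain ⟨x, hx, rfl⟩ := Finset.mem_smul_finset.1 hy
    change g x ∈ _
    simp only [Finset.mem_insert] at hx ⊢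
    rcases hx with rfl | rfl | rfl | hx
    · simp
    · simp
    · simp [e3]
    · simp [hT x hx, hx]

theorem IsHomog.three_mul_choose_dvd {j : ℕ} (h : IsHomog G α (j + 3)) {g : Perm α} (hg : g ∈ G)
    (h3 : orderOf g = 3) (hj : j ≤ {x | g x = x}.ncard) :
    3 * (Fintype.card α).choose (j + 3) ∣ Nat.card G := by
  obtain ⟨T, hT, hTc⟩ := Finset.exists_subset_card_eq (s := {x | g x = x}.toFinset) (n := j)
    (by rwa [← Set.ncard_eq_toFinset_card'])
  obtain ⟨Δ, hΔ, hgΔ⟩ := exists_invariant_of_order_three (g := g)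
    (by rw [← h3, pow_orderOf_eq_one]) (by rintro rfl; simp at h3) T
    (fun x hx => by simpa using hT hx)
  rw [← h.card_stabilizer_mul (hΔ.trans (by rw [hTc]))]
  refine Nat.mul_dvd_mul_right ?_ _
  rw [← h3]
  exact (Subgroup.orderOf_coe (⟨g, hg⟩ : G)) ▸ Subgroup.orderOf_dvd_natCard _ hgΔ

theorem not_sharp_three_seven (hG : IsMultiplyPretransitive G α 3)
    (hs : ∀ g ∈ G, 3 ≤ {x | g x = x}.ncard → g = 1) (hn : Fintype.card α = 7)
    (h3 : 3 ∣ Nat.card G) : False := by
  have := Fact.mk Nat.prime_three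
  obtain ⟨⟨g, hg⟩, hg3⟩ := exists_prime_orderOf_dvd_card' 3 h3
  rw [← Subgroup.orderOf_coe] at hg3
  change orderOf g = 3 at hg3
  have hg1 : g ≠ 1 := by rintro rfl; simp at hg3
  have hgp : g ^ 3 = 1 := by rw [← hg3, pow_orderOf_eq_one]
  have hm := card_modEq_of_pow_eq_one (G := Perm α) Nat.prime_three hgp (Set.univ : Set α)
    (fun _ _ => trivial)
  rw [Set.univ_inter, Set.ncard_univ, Nat.card_eq_fintype_card, hn, Nat.ModEq] at hm
  change 7 % 3 = {x | g x = x}.ncard % 3 at hm
  have hf : {x | g x = x}.ncard = 1 := by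
    have : ¬ 3 ≤ {x | g x = x}.ncard := fun h => hg1 (hs g hg h)
    omega
  obtain ⟨c, hc⟩ := Set.ncard_eq_one.1 hf
  have hc' : ∀ x, g x = x ↔ x = c := fun x => Set.ext_iff.1 hc x
  obtain ⟨a, ha⟩ : ∃ a, g a ≠ a := by
    by_contra h
    push Not at h
    exact hg1 (Equiv.ext h)
  have e3 : ∀ x, g (g (g x)) = x := fun x => by
    have := congrArg (fun u : Perm α => u x) hgp
    simpa [pow_succ] using this
  have d1 : g (g a) ≠ g a := fun e => ha (g.injective e)
  have d2 : g (g a) ≠ a := fun e => ha (by have := e3 a; rwa [e] at this)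
  obtain ⟨⟨s, hsG⟩, s1, s2, s3⟩ := isMultiplyPretransitive_three_iff.1 hG a (g a) (g (g a))
    (g a) a (g (g a)) ha.symm d2.symm d1.symm ha d1.symm d2.symm
  change s a = g a at s1
  change s (g a) = a at s2
  change s (g (g a)) = g (g a) at s3
  have hT : 3 ≤ ({a, g a, g (g a)} : Set α).ncard :=
    (Set.ncard_eq_three.2 ⟨_, _, _, ha.symm, d2.symm, d1.symm, rfl⟩).ge
  have hss : s * s = 1 := hs _ (G.mul_mem hsG hsG) (hT.trans (Set.ncard_le_ncard (by
    rintro x (rfl | rfl | rfl) <;> simp only [Set.mem_ofPred_eq, Perm.mul_apply, s1, s2, s3])))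
  have hsg : g * s * g * s = 1 := hs _ (G.mul_mem (G.mul_mem (G.mul_mem hg hsG) hg) hsG)
    (hT.trans (Set.ncard_le_ncard (by
      rintro x (rfl | rfl | rfl) <;>
        simp only [Set.mem_ofPred_eq, Perm.mul_apply, s1, s2, s3, e3])))
  have hsc : s c = c := by
    rw [← hc']
    have := congrArg (fun u : Perm α => u (s (g c))) hsg
    simp only [Perm.mul_apply, apply_apply_of_mul_self hss, Perm.one_apply, (hc' c).2 rfl] at this
    exact this
  have hm2 := card_modEq_of_pow_eq_one (G := Perm α) Nat.prime_two (g := s) (by rw [pow_two, hss])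
    (Set.univ : Set α) (fun _ _ => trivial)
  rw [Set.univ_inter, Set.ncard_univ, Nat.card_eq_fintype_card, hn, Nat.ModEq] at hm2
  change 7 % 2 = {x | s x = x}.ncard % 2 at hm2
  have hcne : c ≠ g (g a) := fun e => d2 (by have := (hc' c).2 rfl; rw [e, e3] at this; exact this.symm)
  have h2 : 2 ≤ {x | s x = x}.ncard := by
    rw [← Set.ncard_pair hcne]
    apply Set.ncard_le_ncard _ (Set.toFinite _)
    rintro x (rfl | rfl)
    · exact hsc
    · exact s3
  rw [hs s hsG (by omega)] at s1
  exact ha s1.symm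

theorem exists_commute_of_card_154 {L : Type*} [Group L] [Finite L] (hL : Nat.card L = 154)
    {x : L} (hx : x ^ 7 = 1) : ∃ y : L, y ≠ 1 ∧ y ^ 11 = 1 ∧ x * y = y * x := by
  have := Fact.mk (show Nat.Prime 11 by norm_num)
  obtain ⟨P⟩ : Nonempty (Sylow 11 L) := inferInstance
  have hP : Nat.card P = 11 := by
    rw [P.card_eq_multiplicity, hL, show 154 = 11 * 14 by norm_num,
      Nat.factorization_mul (by norm_num) (by norm_num), Finsupp.add_apply,
      Nat.Prime.factorization_self (by norm_num), Nat.factorization_eq_zero_of_not_dvd (by norm_num)]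
    rfl
  have hi : (P : Subgroup L).index = 14 := by
    have := (P : Subgroup L).index_mul_card
    rw [hP, hL] at this
    omega
  have h1 : Nat.card (Sylow 11 L) = 1 := by
    have h2 := P.card_dvd_index
    have h3 := card_sylow_modEq_one 11 L
    rw [hi] at h2
    have h4 := Nat.le_of_dvd (by norm_num) h2
    rw [Nat.ModEq] at h3
    generalize Nat.card (Sylow 11 L) = n at *
    interval_cases n <;> simp_all
  have : Subsingleton (Sylow 11 L) := (Nat.card_eq_one_iff_unique.1 h1).1
  have hN : (P : Subgroup L).Normal := P.normal_of_subsingleton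
  have hm := card_modEq_of_pow_eq_one (G := MulAut L) (α := L) (show Nat.Prime 7 by norm_num)
    (g := MulAut.conj x) (by rw [← map_pow, hx, map_one]) (P : Set L)
    (fun y hy => hN.conj_mem y hy x)
  have hc : (P : Set L).ncard = 11 := hP
  rw [hc, Nat.ModEq] at hm
  obtain ⟨y, hy, hy1⟩ := Set.exists_ne_of_one_lt_ncard
    (s := (P : Set L) ∩ {y | MulAut.conj x • y = y}) (by omega) 1
  refine ⟨y, hy1, ?_, mul_inv_eq_iff_eq_mul.1 hy.2⟩
  have := pow_card_eq_one' (x := (⟨y, hy.1⟩ : (P : Subgroup L)))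
  rw [hP] at this
  exact congrArg Subtype.val this

omit [DecidableEq α] in
theorem not_degree_24 (hG : IsMultiplyPretransitive G α 3)
    (hs : ∀ g ∈ G, 4 ≤ {x | g x = x}.ncard → g = 1) (hn : Fintype.card α = 24)
    (hc : Nat.card G = 24 * 23 * 22 * 7) : False := by
  obtain ⟨U, -, hU⟩ := Set.exists_subset_card_eq (s := (Set.univ : Set α)) (n := 3)
    (by rw [Set.ncard_univ, Nat.card_eq_fintype_card]; omega)
  obtain ⟨V, hVU, hV⟩ := Set.exists_subset_card_eq (s := U) (n := 2) (by omega)
  have hG2 : IsMultiplyPretransitive G α 2 :=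
    isMultiplyPretransitive_of_le (n := 3) (by norm_num) (by rw [Nat.card_eq_fintype_card]; omega)
  have h1 := (fixingSubgroup G U).index_mul_card
  have h2 := (fixingSubgroup G V).index_mul_card
  rw [index_fixing_eq hG hU, hn, hc] at h1
  rw [index_fixing_eq hG2 hV, hn, hc] at h2
  have h3 : Nat.card (fixingSubgroup G U) = 7 := by simp [Nat.descFactorial] at h1; omega
  have h4 : Nat.card (fixingSubgroup G V) = 154 := by simp [Nat.descFactorial] at h2; omega
  have := Fact.mk (show Nat.Prime 7 by norm_num)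
  have := Fact.mk (show Nat.Prime 11 by norm_num)
  obtain ⟨x, hx⟩ := exists_prime_orderOf_dvd_card' 7 h3.symm.dvd
  have hx7 : x.1 ^ 7 = 1 := by rw [← hx, ← Subgroup.coe_pow, pow_orderOf_eq_one]; rfl
  have hx1 : x.1.1 ≠ 1 := fun e => by
    have : x = 1 := Subtype.ext (Subtype.ext e)
    rw [this, orderOf_one] at hx
    exact absurd hx (by decide)
  obtain ⟨y, hy1, hy11, hxy⟩ := exists_commute_of_card_154 h4
    (x := ⟨x.1, fixingSubgroup_antitone G α hVU x.2⟩) (Subtype.ext hx7)
  have hxy' : y.1.1 * x.1.1 = x.1.1 * y.1.1 := (congrArg (fun u => u.1.1) hxy).symm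
  have hlt : {z | x.1.1 z = z}.ncard < 4 := by
    by_contra h
    exact hx1 (hs _ x.1.2 (not_lt.1 h))
  have hy' : y.1.1 ^ 11 = 1 := congrArg (fun u => u.1.1) hy11
  have hm := card_modEq_of_pow_eq_one (G := Perm α) (show Nat.Prime 11 by norm_num) hy'
    {z | x.1.1 z = z} (fun z hz => (fix_comm hxy' z).2 hz)
  have hle : ({z | x.1.1 z = z} ∩ {z | y.1.1 • z = z}).ncard ≤ {z | x.1.1 z = z}.ncard :=
    Set.ncard_le_ncard Set.inter_subset_left
  have heq := Set.eq_of_subset_of_ncard_le
    (Set.inter_subset_left : {z | x.1.1 z = z} ∩ {z | y.1.1 • z = z} ⊆ _)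
    (Nat.ModEq.eq_of_lt_of_lt hm (by omega) (by omega)).le
  have hyU : y.1 ∈ fixingSubgroup G U := by
    rw [mem_fixingSubgroup_iff]
    intro z hz
    have : z ∈ {z | x.1.1 z = z} := (mem_fixingSubgroup_iff G).1 x.2 z hz
    rw [← heq] at this
    exact this.2
  have h5 := Subgroup.orderOf_dvd_natCard _ hyU
  have h6 : orderOf y.1 = 11 :=
    orderOf_eq_prime (congrArg Subtype.val hy11) fun e => hy1 (Subtype.ext e)
  rw [h3, h6] at h5
  exact absurd h5 (by decide)

/-- Hypothesis of the numerical check. -/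
def lwHyp (t m d : ℕ) : Bool :=
  decide (1 ≤ t) && decide (3 ≤ m) && m % d == 0 && d % 2 == 1 &&
    (d * (t + 1).factorial) % m == 0 && (d * (t + 2).factorial) % (m * (m - 1)) == 0

/-- Conclusion of the numerical check. -/
def lwConcl (t m d : ℕ) : Bool :=
  (t == 2 && (m == 3 && d == 1 || m == 9 && d == 3)) ||
    (t == 3 && (m == 3 && d == 1 || m == 4 && d == 1 || m == 6 && d == 1 || m == 6 && d == 3 ||
      m == 9 && d == 3 || m == 21 && d == 7))

theorem numeric_cases {t m d : ℕ} (ht1 : 1 ≤ t) (ht : t ≤ 3) (hm : 3 ≤ m) (hd : d ∣ m)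
    (hdm : d ≠ m) (ho : Odd d) (h1 : m ∣ d * (t + 1).factorial)
    (h2 : m * (m - 1) ∣ d * (t + 2).factorial) :
    (t = 2 ∧ (m = 3 ∧ d = 1 ∨ m = 9 ∧ d = 3)) ∨
      (t = 3 ∧ (m = 3 ∧ d = 1 ∨ m = 4 ∧ d = 1 ∨ m = 6 ∧ d = 1 ∨ m = 6 ∧ d = 3 ∨ m = 9 ∧ d = 3 ∨
        m = 21 ∧ d = 7)) := by
  have hdlt : d < m := lt_of_le_of_ne (Nat.le_of_dvd (by omega) hd) hdm
  have hf : (t + 2).factorial ≤ 120 := Nat.factorial_le (n := 5) (by omega)
  have h3 := Nat.le_of_dvd (Nat.mul_pos ho.pos (Nat.factorial_pos _)) h2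
  have h4 : m < 121 := by
    by_contra h
    have : d * (t + 2).factorial < m * (m - 1) := Nat.mul_lt_mul_of_lt_of_le hdlt (by omega)
      (by omega)
    omega
  have key : ∀ t < 4, ∀ m < 121, ∀ d < m, lwHyp t m d = true → lwConcl t m d = true := by
    decide +kernel
  have := key t (by omega) m h4 d hdlt (by
    simp only [lwHyp, Bool.and_eq_true, decide_eq_true_eq, beq_iff_eq]
    exact ⟨⟨⟨⟨⟨ht1, hm⟩, Nat.mod_eq_zero_of_dvd hd⟩, Nat.odd_iff.1 ho⟩,
      Nat.mod_eq_zero_of_dvd h1⟩, Nat.mod_eq_zero_of_dvd h2⟩)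
  simpa only [lwConcl, Bool.and_eq_true, Bool.or_eq_true, beq_iff_eq, or_assoc] using this

theorem homog_classification {t : ℕ} (hn : t + 1 + 2 ≤ Fintype.card α)
    (hG : IsMultiplyPretransitive G α (t + 1)) (hnt : ¬ IsMultiplyPretransitive G α (t + 1 + 1))
    (h1 : IsHomog G α (t + 1 + 1)) (h2 : IsHomog G α (t + 1 + 2)) :
    (t + 1 + 2 = Fintype.card α ∧ G = alternatingGroup α) ∨
      (Fintype.card α = 5 ∧ t + 1 + 2 = 4 ∧ Nat.card G = 20) ∨
      (Fintype.card α = 6 ∧ t + 1 + 2 = 5 ∧ Nat.card G = 120) ∨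
      (Fintype.card α = 9 ∧ t + 1 + 2 = 5 ∧ (Nat.card G = 504 ∨ Nat.card G = 1512)) := by
  classical
  have hex : ∀ k ≤ Fintype.card α, ∃ s : Finset α, s.card = k := fun k hk => by
    obtain ⟨s, -, hs⟩ := Finset.exists_subset_card_eq (s := (Finset.univ : Finset α)) (n := k)
      (by rwa [Finset.card_univ])
    exact ⟨s, hs⟩
  obtain ⟨U, hU⟩ := hex (t + 1) (by omega)
  obtain ⟨Δ, hΔ⟩ := hex (t + 1 + 1) (by omega)
  obtain ⟨Δ', hΔ'⟩ := hex (t + 1 + 2) hn
  have hl : Nat.card (fixingSubgroup G (Δ : Set α)) = 1 := by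
    by_contra h
    exact hnt (isMultiplyPretransitive_of_card_fixing (by rwa [Nat.card_eq_fintype_card]) _ _
      (lt_of_le_of_ne Nat.card_pos (Ne.symm h)) (fun s hs => h1.card_fixing_eq hΔ hs)
      (fun s hs => h2.card_fixing_eq hΔ' hs))
  have hsharp : ∀ g ∈ G, t + 1 + 1 ≤ {x | g x = x}.ncard → g = 1 := by
    intro g hg hle
    obtain ⟨T, hT, hTc⟩ := Finset.exists_subset_card_eq (s := {x | g x = x}.toFinset)
      (n := t + 1 + 1) (by rwa [← Set.ncard_eq_toFinset_card'])
    have e := Subgroup.card_eq_one.1 ((h1.card_fixing_eq hΔ hTc).trans hl)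
    have : (⟨g, hg⟩ : G) ∈ fixingSubgroup G (T : Set α) :=
      (mem_fixingSubgroup_iff G).2 fun x hx => by simpa using hT hx
    rw [e] at this
    exact congrArg Subtype.val this
  by_cases hA : alternatingGroup α ≤ G
  · left
    refine ⟨?_, (eq_top_or_eq_alternatingGroup hA).resolve_left ?_⟩
    · by_contra h
      have := isMultiplyPretransitive_of_alt_le hA
      exact hnt (isMultiplyPretransitive_of_le (n := Fintype.card α - 2) (by omega)
        (by rw [Nat.card_eq_fintype_card]; omega))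
    · rintro rfl
      exact hnt (isMultiplyPretransitive_iff_forall.2 fun x y => by
        obtain ⟨g, hg⟩ := isMultiplyPretransitive_iff_forall.1
          (Equiv.Perm.isMultiplyPretransitive α _) x y
        exact ⟨⟨g, trivial⟩, hg⟩)
  right
  have hn3 : t + 1 + 3 ≤ Fintype.card α := by
    by_contra h
    exact hA (alt_le_of_isMultiplyPretransitive hG (by omega) (by omega))
  have hO : OddStab G (t + 1) := by
    apply OddStab.of_involution
    intro g hg hg2 hle
    by_contra hg1
    obtain ⟨x⟩ : Nonempty (Fin (t + 1 + 1) ↪ α) :=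
      Function.Embedding.nonempty_of_card_le (by rw [Fintype.card_fin]; omega)
    exact hnt (h1.isMultiplyPretransitive (induced_eq_top_of_involution hG
      (fun g hg _ => hsharp g hg) hg hg2 hg1 hle (Fintype.card_fin _) x))
  have hU' : (U : Set α).ncard = t + 1 := by rw [Set.ncard_coe_finset, hU]
  obtain ⟨m, hm⟩ : ∃ m, Fintype.card α = m + (t + 1) := ⟨Fintype.card α - (t + 1), by omega⟩
  set d := Nat.card (fixingSubgroup G (U : Set α)) with hd
  have hc : (Fintype.card α).descFactorial (t + 1) * d = Nat.card G := by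
    rw [← index_fixing_eq hG hU', Subgroup.index_mul_card]
  have hpos : 0 < (Fintype.card α).descFactorial (t + 1) := Nat.descFactorial_pos.2 (by omega)
  have e1 := h1.card_stabilizer_mul hΔ
  have e2 := h2.card_stabilizer_mul hΔ'
  have f1 : Nat.card (stabilizer G Δ) * m = d * (t + 1 + 1).factorial := by
    apply Nat.eq_of_mul_eq_mul_right hpos
    have := Nat.descFactorial_eq_factorial_mul_choose (Fintype.card α) (t + 1 + 1)
    rw [Nat.descFactorial_succ, show Fintype.card α - (t + 1) = m by omega] at this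
    rw [mul_assoc, this, mul_left_comm, e1, ← hc]
    ring
  have f2 : Nat.card (stabilizer G Δ') * (m * (m - 1)) = d * (t + 1 + 2).factorial := by
    apply Nat.eq_of_mul_eq_mul_right hpos
    have := Nat.descFactorial_eq_factorial_mul_choose (Fintype.card α) (t + 1 + 2)
    rw [Nat.descFactorial_succ, Nat.descFactorial_succ, show Fintype.card α - (t + 1) = m by omega,
      show Fintype.card α - (t + 1 + 1) = m - 1 by omega, ← mul_assoc, mul_comm (m - 1)] at this
    rw [mul_assoc, this, mul_left_comm, e2, ← hc]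
    ring
  by_cases ht : 3 ≤ t
  · exfalso
    obtain ⟨j, rfl⟩ : ∃ j, t = j + 3 := ⟨t - 3, by omega⟩
    obtain ⟨hj, h3, h4⟩ := (hO.hall_ext hG (by omega)).resolve_left fun h => hA h.1
    rw [← hc] at h4
    have hd1 : d = 1 := (Nat.mul_eq_left hpos.ne').1 h4
    rw [hd1, show m = 7 by omega] at f1
    have : 7 ∣ 1 * (j + 3 + 1 + 1).factorial := f1 ▸ Dvd.intro_left _ rfl
    interval_cases j <;> exact absurd this (by decide)
  have hfree : ∀ (g : fixingSubgroup G (U : Set α))
      (x : SubMulAction.ofFixingSubgroup G (U : Set α)), g • x = x → g = 1 := by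
    intro g x hx
    refine Subtype.ext (Subtype.ext (hsharp _ g.1.2 ?_))
    have h3 : insert x.1 (U : Set α) ⊆ {y | g.1.1 y = y} := by
      rintro y (rfl | hy)
      · exact congrArg Subtype.val hx
      · exact (mem_fixingSubgroup_iff G).1 g.2 y hy
    have h4 := Set.ncard_le_ncard h3
    rwa [Set.ncard_insert_of_notMem x.2, hU'] at h4
  have hcm : Nat.card (SubMulAction.ofFixingSubgroup G (U : Set α)) = m := by
    have h3 := Set.ncard_add_ncard_compl (U : Set α)
    rw [Nat.card_eq_fintype_card] at h3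
    change (U : Set α)ᶜ.ncard = m
    omega
  have hdm : d ∣ m := hcm ▸ CfsgLib.Fgs.card_dvd_of_free hfree
  have hne : d ≠ m := by
    intro e
    refine hnt (isMultiplyPretransitive_succ_of_exists hG U hU fun a ha b hb => ?_)
    have hb : Function.Bijective fun g : fixingSubgroup G (U : Set α) =>
        g • (⟨a, ha⟩ : SubMulAction.ofFixingSubgroup G (U : Set α)) := by
      refine Function.Injective.bijective_of_nat_card_le (fun g h e => ?_) (by omega)
      have := hfree (h⁻¹ * g) _ (by rw [mul_smul, inv_smul_eq_iff]; exact e)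
      exact (inv_mul_eq_one.1 this).symm
    obtain ⟨g, hg⟩ := hb.2 ⟨b, by assumption⟩
    exact ⟨g.1, (mem_fixingSubgroup_iff G).1 g.2, congrArg Subtype.val hg⟩
  have h3d : 3 ∣ d → ∃ g ∈ G, orderOf g = 3 ∧ t + 1 ≤ {x | g x = x}.ncard := by
    intro h
    have := Fact.mk Nat.prime_three
    obtain ⟨g, hg⟩ := exists_prime_orderOf_dvd_card' 3 h
    exact ⟨g.1.1, g.1.2, by rw [Subgroup.orderOf_coe, Subgroup.orderOf_coe, hg],
      hU' ▸ Set.ncard_le_ncard ((mem_fixingSubgroup_iff G).1 g.2)⟩
  rcases numeric_cases (t := t + 1) (by omega) (by omega) (by omega) hdm hne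
    (hO.odd_card_fixing hU'.ge) (f1 ▸ Dvd.intro_left _ rfl) (f2 ▸ Dvd.intro_left _ rfl) with
    ⟨h, h'⟩ | ⟨h, h'⟩
  · obtain rfl : t = 1 := by omega
    rcases h' with ⟨rfl, h'⟩ | ⟨rfl, h'⟩
    · exact Or.inl ⟨hm, rfl, by rw [← hc, hm, h']; rfl⟩
    · exfalso
      obtain ⟨g, hg, hg3, -⟩ := h3d h'.symm.dvd
      have := IsHomog.three_mul_choose_dvd (j := 0) h1 hg hg3 (Nat.zero_le _)
      rw [← hc, hm, h'] at this
      exact absurd this (by decide)
  · obtain rfl : t = 2 := by omega
    rcases h' with ⟨rfl, h'⟩ | ⟨rfl, h'⟩ | ⟨rfl, h'⟩ | ⟨rfl, h'⟩ | ⟨rfl, h'⟩ | ⟨rfl, h'⟩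
    · exact Or.inr (Or.inl ⟨hm, rfl, by rw [← hc, hm, h']; rfl⟩)
    · exfalso
      refine not_sharp_three_seven hG (fun g hg hle => ?_) hm (by rw [← hc, hm, h']; decide)
      obtain ⟨T, hT, hTc⟩ := Finset.exists_subset_card_eq (s := {x | g x = x}.toFinset)
        (n := 3) (by rwa [← Set.ncard_eq_toFinset_card'])
      have e := Subgroup.card_eq_one.1
        (((IsHomog.of_isMultiplyPretransitive hG).card_fixing_eq hU hTc).trans h')
      have : (⟨g, hg⟩ : G) ∈ fixingSubgroup G (T : Set α) :=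
        (mem_fixingSubgroup_iff G).2 fun x hx => by simpa using hT hx
      rw [e] at this
      exact congrArg Subtype.val this
    · exact Or.inr (Or.inr ⟨hm, rfl, Or.inl (by rw [← hc, hm, h']; rfl)⟩)
    · exact Or.inr (Or.inr ⟨hm, rfl, Or.inr (by rw [← hc, hm, h']; rfl)⟩)
    · exfalso
      obtain ⟨g, hg, hg3, hf⟩ := h3d h'.symm.dvd
      have := IsHomog.three_mul_choose_dvd (j := 1) h1 hg hg3 (by omega)
      rw [← hc, hm, h'] at this
      exact absurd this (by decide)
    · exact (not_degree_24 hG hsharp hm (by rw [← hc, hm, h']; rfl)).elim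

/-- The Livingstone–Wagner theorem, first part. -/
theorem IsHomog.transitive_pred {k : ℕ} (hn : 2 * (k + 1) ≤ Fintype.card α)
    (h : IsHomog G α (k + 1)) : IsMultiplyPretransitive G α k := by
  induction k with
  | zero => exact is_zero_pretransitive
  | succ k ih =>
    have h' := h.pred (by omega)
    have hk := ih (by omega) h'
    rcases k with _ | t
    · exact is_one_pretransitive_iff.2 ⟨fun a b => by
        obtain ⟨g, hg⟩ := h' {a} {b} (Finset.card_singleton a) (Finset.card_singleton b)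
        exact ⟨g, by simpa using hg⟩⟩
    · by_contra hnt
      have := homog_classification (by omega) hk hnt h' h
      omega

/-- The Livingstone–Wagner theorem, second part. -/
theorem IsHomog.transitive_of_five_le {j : ℕ} (hn : 2 * (j + 4 + 1) ≤ Fintype.card α)
    (h : IsHomog G α (j + 4 + 1)) : IsMultiplyPretransitive G α (j + 4 + 1) := by
  classical
  have hG := h.transitive_pred hn
  obtain ⟨x, hx⟩ := exists_alt_le_induced _ α G rfl (by omega) hG
  rcases eq_top_or_eq_alternatingGroup hx with e | e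
  · exact h.isMultiplyPretransitive e
  exfalso
  have hO : OddStab G (j + 3) := by
    apply OddStab.of_involution
    intro s hs hs2 hle
    by_contra hs1
    obtain ⟨a, ha⟩ : ∃ a, s a ≠ a := by
      by_contra h
      push Not at h
      exact hs1 (Equiv.ext h)
    obtain ⟨T, hT, hTc⟩ := Finset.exists_subset_card_eq (s := {x | s x = x}.toFinset)
      (n := j + 3) (by rwa [← Set.ncard_eq_toFinset_card'])
    have hT' : ∀ y ∈ T, s y = y := fun y hy => by simpa using hT hy
    obtain ⟨g, hg⟩ := h (Finset.univ.map x) (insert a (insert (s a) T)) (by simp) (by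
      rw [Finset.card_insert_of_notMem, Finset.card_insert_of_notMem, hTc]
      · exact fun e => ha (s.injective (hT' _ e))
      · simp only [Finset.mem_insert, not_or]
        exact ⟨ha.symm, fun e => ha (hT' _ e)⟩)
    have hmem : ∀ y, y ∈ insert a (insert (s a) T) ↔ ∃ i, g.1 (x i) = y := fun y => by
      rw [← hg, Finset.mem_smul_finset]
      simp only [Finset.mem_map, Finset.mem_univ, true_and, exists_exists_eq_and]
      rfl
    obtain ⟨i, hi⟩ := (hmem a).1 (by simp)
    obtain ⟨l, hl⟩ := (hmem (s a)).1 (by simp)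
    have hil : i ≠ l := fun e => ha (by rw [← hl, ← e, hi])
    have : swap i l ∈ induced G x := by
      refine ⟨g.1⁻¹ * s * g.1, G.mul_mem (G.mul_mem (G.inv_mem g.2) hs) g.2, fun r => ?_⟩
      rw [Perm.mul_apply, Perm.mul_apply, Perm.inv_eq_iff_eq]
      by_cases hri : r = i
      · rw [hri, swap_apply_left, hi, hl]
      by_cases hrl : r = l
      · rw [hrl, swap_apply_right, hi, hl, apply_apply_of_mul_self hs2]
      rw [swap_apply_of_ne_of_ne hri hrl]
      have := (hmem _).2 ⟨r, rfl⟩
      simp only [Finset.mem_insert] at this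
      rcases this with e | e | e
      · exact absurd (x.injective (g.1.injective (e.trans hi.symm))) hri
      · exact absurd (x.injective (g.1.injective (e.trans hl.symm))) hrl
      · exact hT' _ e
    rw [e, mem_alternatingGroup, sign_swap hil] at this
    exact absurd this (by decide)
  have hO' : OddStab G (j + 4) := fun g hg hle => hO g hg (by omega)
  rcases hO'.hall_ext hG (by omega) with ⟨-, h1⟩ | ⟨-, h1, h2⟩
  · omega
  obtain ⟨U, -, hU⟩ := Set.exists_subset_card_eq (s := (Set.univ : Set α)) (n := j + 3)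
    (by rw [Set.ncard_univ, Nat.card_eq_fintype_card]; omega)
  have h3 := (fixingSubgroup G U).index_mul_card
  rw [index_fixing_eq (isMultiplyPretransitive_of_le (n := j + 4) (by omega)
    (by rw [Nat.card_eq_fintype_card]; omega)) hU, h2, Nat.descFactorial_succ _ (j + 3),
    show Fintype.card α - (j + 3) = 8 by omega, mul_comm 8] at h3
  have h4 := hO.odd_card_fixing hU.ge
  rw [Nat.eq_of_mul_eq_mul_left (Nat.descFactorial_pos.2 (by omega)) h3] at h4
  exact absurd h4 (by decide)

end CfsgLib.Perm2
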